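import Cfsg.Agent.Lib.Helper35.ONOrd.Y0.Col0

namespace Cfsg.Agent.Lib.Helper35.ONOrd.Y0

open Cfsg.Agent.Lib.Helper35

theorem tchk0 : treeChk (PresON.cc.inv) 8 (fullBases 8 (PresON.cc.inv) (yw :: PresON.R)) (fullSub (PresON.cc.inv) ([])) 0 tree0 = true := by decide +kernel
theorem tchk1 : treeChk (PresON.cc.inv) 8 (fullBases 8 (PresON.cc.inv) (yw :: PresON.R)) (fullSub (PresON.cc.inv) ([])) 1 tree1 = true := by decide +kernel
theorem tchk2 : treeChk (PresON.cc.inv) 8 (fullBases 8 (PresON.cc.inv) (yw :: PresON.R)) (fullSub (PresON.cc.inv) ([])) 2 tree2 = true := by decide +kernel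
theorem tchk3 : treeChk (PresON.cc.inv) 8 (fullBases 8 (PresON.cc.inv) (yw :: PresON.R)) (fullSub (PresON.cc.inv) ([])) 3 tree3 = true := by decide +kernel
theorem tchk4 : treeChk (PresON.cc.inv) 8 (fullBases 8 (PresON.cc.inv) (yw :: PresON.R)) (fullSub (PresON.cc.inv) ([])) 4 tree4 = true := by decide +kernel
theorem tchk5 : treeChk (PresON.cc.inv) 8 (fullBases 8 (PresON.cc.inv) (yw :: PresON.R)) (fullSub (PresON.cc.inv) ([])) 5 tree5 = true := by decide +kernel
theorem tchk6 : treeChk (PresON.cc.inv) 8 (fullBases 8 (PresON.cc.inv) (yw :: PresON.R)) (fullSub (PresON.cc.inv) ([])) 6 tree6 = true := by decide +kernel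
theorem tchk7 : treeChk (PresON.cc.inv) 8 (fullBases 8 (PresON.cc.inv) (yw :: PresON.R)) (fullSub (PresON.cc.inv) ([])) 7 tree7 = true := by decide +kernel
theorem tchk8 : treeChk (PresON.cc.inv) 8 (fullBases 8 (PresON.cc.inv) (yw :: PresON.R)) (fullSub (PresON.cc.inv) ([])) 8 tree8 = true := by decide +kernel

noncomputable def certData2 : CertData2 (PresON.cc.C) (PresON.cc.inv) (yw :: PresON.R) ([]) 1 where
  P := par
  hP := ⟨by decide +kernel, by decide +kernel, by decide +kernel, by decide +kernel, by decide +kernel⟩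
  tabs := tabs
  N := 46
  st := st
  hst := hst
  trees := trees
  je := je
  pe := pe
  rb := 6
  mR := 63
  cK := 16
  hcK := by decide +kernel
  htree := by
    intro l hl
    have hl' : l ≤ 8 := hl
    interval_cases l
    exacts [tchk0, tchk1, tchk2, tchk3, tchk4, tchk5, tchk6, tchk7, tchk8]
  hN := by decide +kernel
  hN1 := by decide +kernel
  hlo := by
    intro l hl
    have hl' : l ≤ 8 := hl
    interval_cases l <;> decide +kernel
  hhi := by
    intro l hl
    have hl' : l ≤ 8 := hl
    interval_cases l <;> decide +kernel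
  hz := by
    intro l hl
    have hl' : 8 < l := hl
    obtain ⟨k, rfl⟩ : ∃ k, l = k + 9 := ⟨l - 9, by omega⟩
    rfl
  hcol := by
    intro l hl
    have hl' : l < 8 := hl
    interval_cases l
    exacts [s0u0, s1u0, s2u0, s3u0, s4u0, s5u0, s6u0, s7u0]
  heps := s8u0
  hcount := gn0

noncomputable def certData : CertData (PresON.cc.C) (PresON.cc.inv) (yw :: PresON.R) ([]) 1 := certData2.toCertData

end Cfsg.Agent.Lib.Helper35.ONOrd.Y0
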